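import Mathlib
import Cfsg.Agent.Lib.Helper74.OFM.Defs
import Cfsg.Agent.Lib.Helper14.Spinor3
import Cfsg.Agent.Lib.Helper14.ReflGen
import Cfsg.Agent.Lib.Helper14.OmegaInv
import Cfsg.Agent.Lib.Helper44.SiegelOmega

/-!
# OFM project (S5978), package [SPIN] (generic in the quadratic form)

`1, R_u, R_u' R_u, R_u'` represent the cosets of `Ω` in the isometry group of a nondegenerate
quadratic form over a finite field of odd order, when `Q u * Q u'` is a non-square.
-/

set_option autoImplicit false

universe u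

namespace Cfsg.Agent.Lib.Helper88.OFM

open Matrix Cfsg.Agent.Lib.Helper74.OFM Cfsg.Agent.Lib.Helper14

/-- in a finite field the product of two non-squares is a square -/
theorem spin_nonsq_mul' {F : Type u} [Field F] [Fintype F] {x y : F}
    (hx : ¬ IsSquare x) (hy : ¬ IsSquare y) : IsSquare (x * y) := by
  classical
  have hx0 : x ≠ 0 := fun h => hx (by rw [h]; exact IsSquare.zero)
  have hy0 : y ≠ 0 := fun h => hy (by rw [h]; exact IsSquare.zero)
  rw [← quadraticChar_one_iff_isSquare (mul_ne_zero hx0 hy0), map_mul,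
    quadraticChar_neg_one_iff_not_isSquare.mpr hx, quadraticChar_neg_one_iff_not_isSquare.mpr hy]
  norm_num

/-- **[SPIN]** (generic) -/
theorem pkgSpin : PkgSpin.{u} := by
  intro F _ _ hodd ι _ _ Q hQg h hh u u' hu hu' hns
  classical
  obtain ⟨Q', hcoe, hQ⟩ := Cfsg.Agent.Lib.Helper44.exists_quadraticForm_of_geo hQg
  subst hcoe
  have h2 : (2 : F) ≠ 0 := two_ne_zero_of_card_odd hodd
  have hiso : ∀ x, Q' ((h : Matrix ι ι F) *ᵥ x) = Q' x :=
    fun x => (mem_isometryGroup_iff _ h).mp hh x
  obtain ⟨l, hl, hprod⟩ := matrix_eq_prod_refl h2 Q' hQ (h : Matrix ι ι F) hiso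
  -- the generic step
  have step : ∀ e : List (ι → F), (∀ v ∈ e, Q' v ≠ 0) →
      Even (e ++ l).length → IsSquare (((e ++ l).map ⇑Q').prod) →
      ∃ g : GL ι F, g ∈ Cfsg.Geo.omegaGL ⇑Q' ∧
        (g : Matrix ι ι F) =
          (e.map (Cfsg.reflectionMatrix ⇑Q')).prod * (h : Matrix ι ι F) := by
    intro e he hev hsq
    have hl' : ∀ v ∈ e ++ l, Q' v ≠ 0 := by
      intro v hv
      rcases List.mem_append.mp hv with hv | hv
      · exact he v hv
      · exact hl v hv
    have hM : ((e ++ l).map (Cfsg.reflectionMatrix ⇑Q')).prod =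
        (e.map (Cfsg.reflectionMatrix ⇑Q')).prod * (h : Matrix ι ι F) := by
      rw [List.map_append, List.prod_append, ← hprod]
    obtain ⟨g, hg, hgM⟩ := (exists_mem_omega_iff h2 Q' hQ _ rfl (e ++ l) hl' _
      hM).mpr ⟨hev, hsq⟩
    exact ⟨(g : GL ι F), Subgroup.mem_map.mpr ⟨g, hg, rfl⟩, hgM⟩
  have hR : ∀ v : ι → F, Q' v ≠ 0 → Rf ⇑Q' v * Rf ⇑Q' v = 1 :=
    fun v hv => reflectionMatrix_mul_self Q' hv
  by_cases hev : Even l.length
  · by_cases hsq : IsSquare ((l.map ⇑Q').prod)
    · obtain ⟨g, hg, hgM⟩ := step [] (by simp) (by simpa using hev) (by simpa using hsq)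
      refine ⟨g, 1, 1, hg, by simp, ?_, Or.inl ⟨rfl, rfl⟩⟩
      rw [hgM]; simp
    · have hsq' : IsSquare ((([u', u] ++ l).map ⇑Q').prod) := by
        simp only [List.cons_append, List.nil_append, List.map_cons, List.prod_cons]
        have h3 := spin_nonsq_mul' hns hsq
        have e : Q' u' * (Q' u * (l.map ⇑Q').prod) = Q' u * Q' u' * (l.map ⇑Q').prod := by ring
        rw [e]; exact h3
      have hlen : Even ([u', u] ++ l).length := by
        have e : ([u', u] ++ l).length = l.length + 2 := by simp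
        rw [e]; exact hev.add even_two
      obtain ⟨g, hg, hgM⟩ := step [u', u] (by
        intro v hv
        simp only [List.mem_cons, List.not_mem_nil, or_false] at hv
        rcases hv with rfl | rfl
        · exact hu'
        · exact hu) hlen hsq'
      refine ⟨g, Rf ⇑Q' u' * Rf ⇑Q' u, Rf ⇑Q' u * Rf ⇑Q' u', hg, ?_, ?_,
        Or.inr (Or.inr (Or.inl ⟨rfl, rfl⟩))⟩
      · calc Rf ⇑Q' u' * Rf ⇑Q' u * (Rf ⇑Q' u * Rf ⇑Q' u')
            = Rf ⇑Q' u' * (Rf ⇑Q' u * Rf ⇑Q' u) * Rf ⇑Q' u' := by simp only [mul_assoc]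
          _ = 1 := by rw [hR u hu, mul_one, hR u' hu']
      · rw [hgM]
        simp only [List.map_cons, List.map_nil, List.prod_cons, List.prod_nil, mul_one]
  · have hodd' : Odd l.length := Nat.not_even_iff_odd.mp hev
    by_cases hsq : IsSquare (Q' u * (l.map ⇑Q').prod)
    · have hsq' : IsSquare ((([u] ++ l).map ⇑Q').prod) := by
        simp only [List.cons_append, List.nil_append, List.map_cons, List.prod_cons]
        exact hsq
      have hlen : Even ([u] ++ l).length := by
        have e : ([u] ++ l).length = l.length + 1 := by simp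
        rw [e]; exact hodd'.add_one
      obtain ⟨g, hg, hgM⟩ := step [u] (by
        intro v hv
        simp only [List.mem_cons, List.not_mem_nil, or_false] at hv
        rw [hv]; exact hu) hlen hsq'
      refine ⟨g, Rf ⇑Q' u, Rf ⇑Q' u, hg, hR u hu, ?_, Or.inr (Or.inl ⟨rfl, rfl⟩)⟩
      rw [hgM]
      simp only [List.map_cons, List.map_nil, List.prod_cons, List.prod_nil, mul_one]
    · have hsq' : IsSquare ((([u'] ++ l).map ⇑Q').prod) := by
        simp only [List.cons_append, List.nil_append, List.map_cons, List.prod_cons]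
        obtain ⟨t, ht⟩ := spin_nonsq_mul' hsq hns
        refine ⟨t / Q' u, ?_⟩
        rw [div_mul_div_comm, ← ht]
        field_simp
      have hlen : Even ([u'] ++ l).length := by
        have e : ([u'] ++ l).length = l.length + 1 := by simp
        rw [e]; exact hodd'.add_one
      obtain ⟨g, hg, hgM⟩ := step [u'] (by
        intro v hv
        simp only [List.mem_cons, List.not_mem_nil, or_false] at hv
        rw [hv]; exact hu') hlen hsq'
      refine ⟨g, Rf ⇑Q' u', Rf ⇑Q' u', hg, hR u' hu', ?_,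
        Or.inr (Or.inr (Or.inr ⟨rfl, rfl⟩))⟩
      rw [hgM]
      simp only [List.map_cons, List.map_nil, List.prod_cons, List.prod_nil, mul_one]

end Cfsg.Agent.Lib.Helper88.OFM
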